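import Cfsg.Agent.Lib.Leech.OutCo1Norm
import Cfsg.Agent.Lib.Leech.SimpleConf
import Cfsg.Agent.Lib.Leech.Cert
import Cfsg.Agent.Lib.Schur.PcMain

/-!
# Tail certificates for the central quotient of the automorphism group of the lattice

The elements of a certificate are words in the signed permutations and `ξ`; equations are checked on the
vectors `8 e_i`, up to the central element `-1`; the order of the subgroup is bounded below by
orbits and stabilisers of lattice vectors.
-/

set_option autoImplicit false

namespace Cfsg.Agent.Lib.Schur.Co1M.Engine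

open Cfsg Subgroup Cfsg.Agent.Lib.Schur.PcCert Cfsg.Agent.Lib.Schur.PcGroup Cfsg.Agent.Lib.Schur.PcMain
open Cfsg.Agent.Lib.Golay.Core Cfsg.Agent.Lib.Leech.Basic Cfsg.Agent.Lib.Leech.Vec
  Cfsg.Agent.Lib.Leech.Lat Cfsg.Agent.Lib.Leech.Cert Cfsg.Agent.Lib.Leech.Word Cfsg.Agent.Lib.Leech.OutCo1Base
  Cfsg.Agent.Lib.Leech.Center Cfsg.Agent.Lib.Leech.Co1 Cfsg.Agent.Lib.Leech.OutCo1Norm
  Cfsg.Agent.Lib.Leech.SimpleConf

/-- The operation `-1`. -/
def negOp : ℕ × ℕ := (Cfsg.Agent.Lib.Leech.Co1.Pid, 16777215)

/-- The projection to the central quotient. -/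
noncomputable abbrev piC : Co0 →* Spor.Co1 := QuotientGroup.mk' (Subgroup.center Co0)

theorem piC_center {g : Co0} (hg : g ∈ Subgroup.center Co0) : piC g = 1 :=
  (QuotientGroup.eq_one_iff g).2 hg

/-- The image of a word. -/
noncomputable def pW (w : List (ℕ × ℕ)) : Spor.Co1 := piC (wG w)

/-- The expansion of a word in letters. -/
def expand (wE : List (List (ℕ × ℕ))) : List ℕ → List (ℕ × ℕ)
  | [] => []
  | a :: u => expand wE u ++ wE.getD a []

/-- Equality of words up to the centre. -/
def eqS (u v : List (ℕ × ℕ)) : Bool := eqW u v || eqW u (v ++ [negOp])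

theorem negOp_center (hneg : wG [negOp] ∈ Subgroup.center Co0) : opG negOp ∈ Subgroup.center Co0 := by
  have h : wG [negOp] = opG negOp := by simp
  rwa [h] at hneg

theorem pW_eq (hneg : wG [negOp] ∈ Subgroup.center Co0) {u v : List (ℕ × ℕ)} (h : eqS u v = true) :
    pW u = pW v := by
  unfold eqS at h
  rcases (Bool.or_eq_true _ _).mp h with h | h
  · rw [pW, pW, wG_eq h]
  · rw [pW, pW, wG_eq h, wG_append, map_mul, piC_center hneg, one_mul]

theorem pW_append (u v : List (ℕ × ℕ)) : pW (u ++ v) = pW v * pW u := by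
  rw [pW, wG_append, map_mul]
  rfl

/-- The letters. -/
noncomputable def eL (wE : List (List (ℕ × ℕ))) (l : ℕ) : Spor.Co1 := pW (wE.getD l [])

theorem pW_expand (wE : List (List (ℕ × ℕ))) (u : List ℕ) : pW (expand wE u) = wEval (eL wE) u := by
  induction u with
  | nil =>
    show piC (wG []) = 1
    simp
  | cons a u ih =>
    rw [expand, pW_append, ih, wEval_cons]
    rfl

/-- The rules of one letter. -/
def rowOK (c : PcMain.Cert) (wE : List (List (ℕ × ℕ))) (j : ℕ) : Bool :=
  eqS (expand wE (List.replicate c.p j)) (expand wE (c.rule j j)) &&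
    (List.range j).all fun i => eqS (expand wE [j, i]) (expand wE (i :: c.rule j i))

/-- One letter of an item. -/
def letOK (c : PcMain.Cert) (wE wY : List (List (ℕ × ℕ))) (f l : ℕ) : Bool :=
  eqS (wY.getD f [] ++ expand wE (c.lett f l)) (expand wE (c.letb f l) ++ wY.getD f [])

/-- An item. -/
def itemOK (c : PcMain.Cert) (wE wY : List (List (ℕ × ℕ))) (f : ℕ) : Bool :=
  Nat.beq (c.items.getD f ([], [])).1.length (c.items.getD f ([], [])).2.length &&
    (List.range (c.items.getD f ([], [])).1.length).all (letOK c wE wY f)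

/-- A strictly increasing list. -/
def incN : List ℕ → Bool
  | [] => true
  | [_] => true
  | a :: b :: l => Nat.blt a b && incN (b :: l)

theorem incN_pairwise {l : List ℕ} (h : incN l = true) : l.Pairwise (· < ·) := by
  induction l with
  | nil => exact List.Pairwise.nil
  | cons a l ih =>
    cases l with
    | nil => simp
    | cons b l =>
      simp only [incN, Bool.and_eq_true] at h
      have hab : a < b := Nat.le_of_ble_eq_true h.1
      have h2 := ih h.2
      refine List.pairwise_cons.2 ⟨?_, h2⟩
      intro x hx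
      rcases List.mem_cons.1 hx with rfl | hx
      · exact hab
      · exact hab.trans (List.rel_of_pairwise_cons h2 hx)

/-- The check of one level of the lower bound: base vector `a`, earlier base vectors `prev`. -/
def levOK (wE : List (List (ℕ × ℕ))) (prev : List ℕ) (a : ℕ) (ws : List (List ℕ)) : Bool :=
  ws.all (fun u => prev.all fun b => runW (expand wE u) b b) &&
  ws.all (fun u => Nat.blt (imgW (expand wE u) a) (2 ^ 120) && runW (expand wE u) a (imgW (expand wE u) a)) &&
  incN (ws.map fun u => imgW (expand wE u) a)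

/-- The levels. -/
def chkLev (wE : List (List (ℕ × ℕ))) : List ℕ → List (ℕ × List (List ℕ)) → Bool
  | _, [] => true
  | prev, t :: ls => levOK wE prev t.1 t.2 && chkLev wE (t.1 :: prev) ls

section Lower

/-- The elements of `Q` fixing the vectors of a list. -/
def Kl (Q : Subgroup Co0) (prev : List ℕ) : Subgroup Co0 := Q ⊓ FixG prev

theorem card_step_le (Q : Subgroup Co0) {prev : List ℕ} {a : ℕ} (ha : dec a ∈ leechLattice) (T : List Co0)
    (hT : ∀ t ∈ T, t ∈ Kl Q prev)
    (hinj : (T.map fun t => ((t • (⟨dec a, ha⟩ : L) : L) : GolayPt → ℤ)).Nodup) :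
    T.length * Nat.card (Kl Q (a :: prev)) ≤ Nat.card (Kl Q prev) := by
  classical
  have hsub : ∀ g ∈ Kl Q (a :: prev), g ∈ Kl Q prev := by
    intro g hg
    refine ⟨hg.1, fun r hr hr' => hg.2 r (List.mem_cons_of_mem _ hr) hr'⟩
  let f : Fin T.length × Kl Q (a :: prev) → Kl Q prev := fun q =>
    ⟨T[q.1.1] * q.2.1, mul_mem (hT _ (List.getElem_mem _)) (hsub _ q.2.2)⟩
  have hf : Function.Injective f := by
    rintro ⟨i, s⟩ ⟨j, s'⟩ h
    have h1 : T[i.1] * s.1 = T[j.1] * s'.1 := congrArg Subtype.val h
    have hs : s.1 • (⟨dec a, ha⟩ : L) = ⟨dec a, ha⟩ := s.2.2 a (by simp) ha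
    have hs' : s'.1 • (⟨dec a, ha⟩ : L) = ⟨dec a, ha⟩ := s'.2.2 a (by simp) ha
    have h2 : (T[i.1] * s.1) • (⟨dec a, ha⟩ : L) = (T[j.1] * s'.1) • (⟨dec a, ha⟩ : L) := by rw [h1]
    rw [mul_smul, mul_smul, hs, hs'] at h2
    have h3 : (T.map fun t => ((t • (⟨dec a, ha⟩ : L) : L) : GolayPt → ℤ))[i.1]'(by simp) =
        (T.map fun t => ((t • (⟨dec a, ha⟩ : L) : L) : GolayPt → ℤ))[j.1]'(by simp) := by
      simp only [List.getElem_map]
      exact congrArg (fun v : L => (v : GolayPt → ℤ)) h2
    have h4 : i.1 = j.1 := (List.Nodup.getElem_inj_iff hinj).1 h3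
    have h5 : i = j := Fin.ext h4
    subst h5
    have h6 : s = s' := Subtype.ext (mul_left_cancel h1)
    subst h6
    rfl
  have h1 := Nat.card_le_card_of_injective f hf
  rw [Nat.card_prod, Nat.card_eq_fintype_card, Fintype.card_fin] at h1
  exact h1

end Lower

/-- The lower bound from the levels. -/
theorem le_of_levels (wE : List (List (ℕ × ℕ))) (Q : Subgroup Co0)
    (mem : List ℕ → Prop) (hmem : ∀ u, mem u → wG (expand wE u) ∈ Q) :
    ∀ (lv : List (ℕ × List (List ℕ))) (prev : List ℕ),
      (∀ t ∈ lv, ∀ u ∈ t.2, mem u) → (∀ t ∈ lv, dec t.1 ∈ leechLattice) →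
      chkLev wE prev lv = true →
      (lv.map fun t => t.2.length).prod ≤ Nat.card (Kl Q prev) := by
  intro lv
  induction lv with
  | nil =>
    intro prev _ _ _
    exact Nat.card_pos
  | cons t ls ih =>
    intro prev hl hd h
    rw [chkLev, Bool.and_eq_true] at h
    obtain ⟨h1, h2⟩ := h
    have hih := ih (t.1 :: prev) (fun s hs => hl s (List.mem_cons_of_mem _ hs))
      (fun s hs => hd s (List.mem_cons_of_mem _ hs)) h2
    have ha := hd t List.mem_cons_self
    simp only [levOK, Bool.and_eq_true, List.all_eq_true] at h1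
    obtain ⟨⟨h3, h4⟩, h5⟩ := h1
    let T : List Co0 := t.2.map fun u => wG (expand wE u)
    have hT : ∀ s ∈ T, s ∈ Kl Q prev := by
      intro s hs
      obtain ⟨u, hu, rfl⟩ := List.mem_map.1 hs
      refine ⟨hmem u (hl t List.mem_cons_self u hu), ?_⟩
      intro r hr hr'
      apply Subtype.ext
      exact wG_smul _ (h3 u hu r hr) hr'
    have hinj : (T.map fun s => ((s • (⟨dec t.1, ha⟩ : L) : L) : GolayPt → ℤ)).Nodup := by
      have h6 : (T.map fun s => ((s • (⟨dec t.1, ha⟩ : L) : L) : GolayPt → ℤ)) =
          (t.2.map fun u => imgW (expand wE u) t.1).map dec := by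
        simp only [T, List.map_map]
        refine List.map_congr_left fun u hu => ?_
        have h7 := h4 u hu
        exact wG_smul _ h7.2 ha
      rw [h6]
      have h8 := (incN_pairwise h5).imp (fun h => Nat.ne_of_lt h)
      refine List.Nodup.map_on ?_ h8
      intro x hx y hy hxy
      obtain ⟨u, hu, rfl⟩ := List.mem_map.1 hx
      obtain ⟨v, hv, rfl⟩ := List.mem_map.1 hy
      have hxl := h4 u hu
      have hyl := h4 v hv
      have hx' : imgW (expand wE u) t.1 < 2 ^ 120 := Nat.le_of_ble_eq_true hxl.1
      have hy' : imgW (expand wE v) t.1 < 2 ^ 120 := Nat.le_of_ble_eq_true hyl.1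
      exact dec_inj hx' hy' hxy
    have h9 := card_step_le Q ha T hT hinj
    have hT' : T.length = t.2.length := by simp [T]
    rw [hT'] at h9
    simp only [List.map_cons, List.prod_cons]
    exact le_trans (Nat.mul_le_mul_left _ hih) h9

/-- The main theorem. -/
theorem card_ker_dvd (hneg : wG [negOp] ∈ Subgroup.center Co0) (c : PcMain.Cert) (hc : c.check = true)
    (wE wY : List (List (ℕ × ℕ))) (lv : List (ℕ × List (List ℕ)))
    (hwN : wE.getD c.n [] = [negOp])
    (hrows : ∀ j < c.n, rowOK c wE j = true)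
    (hitems : ∀ f < c.items.length, itemOK c wE wY f = true)
    (hlev : chkLev wE [] lv = true)
    (hlvn : ∀ t ∈ lv, ∀ u ∈ t.2, ∀ y ∈ u, y ≤ c.n)
    (hlvd : ∀ t ∈ lv, dec t.1 ∈ leechLattice)
    (hprod : (lv.map fun t => t.2.length).prod = 2 * c.p ^ c.n)
    {Γ : Type*} [Group Γ] {p : ℕ} [Fact p.Prime] (hpc : c.p = p) [Finite Γ] {σ : Γ →* Spor.Co1}
    (hσ : IsStemExtension σ) {m : ℕ}
    (hG : Nat.card Spor.Co1 = c.p ^ c.n * m) (hm : ¬ p ∣ m) (P : Sylow p Γ) :
    Nat.card (σ.subgroupMap (P : Subgroup Γ)).ker ∣ c.zm := by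
  classical
  have hfinG : Finite Spor.Co1 := Finite.of_surjective σ hσ.1
  let e : ℕ → Spor.Co1 := eL wE
  let y : ℕ → Spor.Co1 := fun f => pW (wY.getD f [])
  have hexp : ∀ u, pW (expand wE u) = wEval e u := pW_expand wE
  have he1 : ∀ j i, i < j → j < c.n → e j * e i = wEval e (i :: c.rule j i) := by
    intro j i hij hj
    have h1 := hrows j hj
    simp only [rowOK, Bool.and_eq_true, List.all_eq_true, List.mem_range] at h1
    have h2 := pW_eq hneg (h1.2 i hij)
    rw [hexp, hexp] at h2
    simpa [wEval] using h2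
  have he2 : ∀ i, i < c.n → e i ^ c.p = wEval e (c.rule i i) := by
    intro i hi
    have h1 := hrows i hi
    simp only [rowOK, Bool.and_eq_true] at h1
    have h2 := pW_eq hneg h1.1
    rw [hexp, hexp, wEval_replicate] at h2
    exact h2
  have hf : ∀ f l, (y f)⁻¹ * wEval e (c.lett f l) * y f = wEval e (c.letb f l) := by
    intro f l
    by_cases hff : f < c.items.length
    · have hit := hitems f hff
      simp only [itemOK, Bool.and_eq_true, List.all_eq_true, List.mem_range] at hit
      by_cases hl : l < (c.items.getD f ([], [])).1.length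
      · have h4 := pW_eq hneg (hit.2 l hl)
        rw [pW_append, pW_append, hexp, hexp] at h4
        rw [mul_assoc, inv_mul_eq_iff_eq_mul]
        exact h4
      · have h1' := Nat.eq_of_beq_eq_true hit.1
        have e1 : c.lett f l = [] := by
          rw [Cert.lett, List.getD_eq_default _ _ (by omega)]
        have e2 : c.letb f l = [] := by
          rw [Cert.letb, List.getD_eq_default _ _ (by omega)]
        rw [e1, e2]
        simp
    · have e1 : c.lett f l = [] := by
        rw [Cert.lett, List.getD_eq_default c.items _ (by omega)]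
        simp
      have e2 : c.letb f l = [] := by
        rw [Cert.letb, List.getD_eq_default c.items _ (by omega)]
        simp
      rw [e1, e2]
      simp
  have hcard : c.p ^ c.n ≤ Nat.card (chain e c.n ⊥ 0) := by
    set Q : Subgroup Spor.Co1 := chain e c.n ⊥ 0 with hQ
    let Q' : Subgroup Co0 := Q.comap piC
    have hen : e c.n = 1 := by
      show pW (wE.getD c.n []) = 1
      rw [hwN]
      exact piC_center hneg
    have hmemw : ∀ u : List ℕ, (∀ x ∈ u, x ≤ c.n) → wG (expand wE u) ∈ Q' := by
      intro u hu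
      show piC (wG (expand wE u)) ∈ Q
      have : piC (wG (expand wE u)) = wEval e u := hexp u
      rw [this]
      induction u with
      | nil => simp [Q.one_mem]
      | cons a u ih =>
        rw [wEval_cons]
        refine Q.mul_mem ?_ (ih (fun x hx => hu x (List.mem_cons_of_mem _ hx)) ?_)
        · have ha := hu a List.mem_cons_self
          rcases Nat.lt_or_ge a c.n with h | h
          · exact gen_mem_chain e c.n ⊥ (Nat.zero_le _) h
          · have : a = c.n := le_antisymm ha h
            rw [this, hen]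
            exact Q.one_mem
        · exact hexp u
    have key := le_of_levels wE Q' (fun u => ∀ x ∈ u, x ≤ c.n) hmemw lv []
      (fun t ht u hu x hx => hlvn t ht u hu x hx) hlvd hlev
    rw [hprod] at key
    have h11 : Nat.card (Kl Q' []) ≤ Nat.card Q' :=
      Nat.card_le_card_of_injective (Subgroup.inclusion (inf_le_left : Kl Q' [] ≤ Q'))
        (Subgroup.inclusion_injective _)
    -- the fibres of the projection have at most two elements
    have : Finite Co0 := inferInstance
    let φ : Q' →* Spor.Co1 := piC.comp Q'.subtype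
    have h12 : Nat.card Q' = Nat.card φ.ker * Nat.card φ.range := by
      have := Subgroup.card_mul_index φ.ker
      rw [Subgroup.index_ker] at this
      exact this.symm
    have h13 : Nat.card φ.ker ≤ 2 := by
      have hle : Nat.card φ.ker ≤ Nat.card (Subgroup.center Co0) := by
        refine Nat.card_le_card_of_injective (fun x => (⟨x.1.1, ?_⟩ : Subgroup.center Co0)) ?_
        · have h : piC x.1.1 = 1 := x.2
          exact (QuotientGroup.eq_one_iff _).1 h
        · intro a b hab
          apply Subtype.ext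
          apply Subtype.ext
          exact congrArg (fun z : Subgroup.center Co0 => z.1) hab
      rwa [card_center] at hle
    have h14 : Nat.card φ.range ≤ Nat.card Q := by
      have hle : φ.range ≤ Q := by
        rintro _ ⟨x, rfl⟩
        exact x.2
      exact Nat.card_le_card_of_injective (Subgroup.inclusion hle) (Subgroup.inclusion_injective _)
    have h15 : 2 * c.p ^ c.n ≤ 2 * Nat.card Q := by
      calc 2 * c.p ^ c.n ≤ Nat.card (Kl Q' []) := key
        _ ≤ Nat.card Q' := h11
        _ = Nat.card φ.ker * Nat.card φ.range := h12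
        _ ≤ 2 * Nat.card Q := Nat.mul_le_mul h13 h14
    omega
  exact card_ker_sylow_dvd c hc hpc hσ e y he1 he2 hf hcard hG hm P

/-- The operation `-1` is the central involution. -/
theorem hneg : wG [negOp] ∈ Subgroup.center Co0 := by
  have h1 : wG [negOp] = opG negOp := by simp
  have h2 : opG negOp = negG := by
    rw [← eps_univ]
    have h3 : negOp = (Pid, 16777215) := rfl
    rw [h3, opG_mon (by decide +kernel) hPid (by norm_num) (by decide +kernel)]
    unfold eps
    have h4 : setOf 16777215 = Finset.univ := by decide +kernel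
    simp only [g_Pid, h4]
  rw [h1, h2]
  exact negG_mem_center

/-- The shape of the levels. -/
def lvOK (c : PcMain.Cert) (lv : List (ℕ × List (List ℕ))) : Bool :=
  lv.all fun t => inL t.1 && t.2.all fun u => u.all fun y => Nat.ble y c.n

/-- The main theorem, with the shape of the levels checked by computation. -/
theorem card_ker_dvd' (c : PcMain.Cert) (hc : c.check = true)
    (wE wY : List (List (ℕ × ℕ))) (lv : List (ℕ × List (List ℕ)))
    (hwN : wE.getD c.n [] = [negOp])
    (hrows : ∀ j < c.n, rowOK c wE j = true)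
    (hitems : ∀ f < c.items.length, itemOK c wE wY f = true)
    (hlev : chkLev wE [] lv = true)
    (hlv : lvOK c lv = true)
    (hprod : (lv.map fun t => t.2.length).prod = 2 * c.p ^ c.n)
    {Γ : Type*} [Group Γ] {p : ℕ} [Fact p.Prime] (hpc : c.p = p) [Finite Γ] {σ : Γ →* Spor.Co1}
    (hσ : IsStemExtension σ) {m : ℕ}
    (hG : Nat.card Spor.Co1 = c.p ^ c.n * m) (hm : ¬ p ∣ m) (P : Sylow p Γ) :
    Nat.card (σ.subgroupMap (P : Subgroup Γ)).ker ∣ c.zm := by
  simp only [lvOK, List.all_eq_true, Bool.and_eq_true] at hlv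
  refine card_ker_dvd hneg c hc wE wY lv hwN hrows hitems hlev ?_ ?_ hprod hpc hσ hG hm P
  · intro t ht u hu y hy
    exact Nat.le_of_ble_eq_true ((hlv t ht).2 u hu y hy)
  · intro t ht
    exact mem_of_inL (hlv t ht).1

end Cfsg.Agent.Lib.Schur.Co1M.Engine
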