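import Cfsg.Agent.Lib.Schur.Co1M.Engine

/-!
# Tail certificate for the central quotient of the automorphism group of the lattice at the prime 7
-/

set_option autoImplicit false
set_option maxRecDepth 1000000
set_option maxHeartbeats 0

namespace Cfsg.Agent.Lib.Schur.Co1M.P7

open Cfsg Cfsg.Agent.Lib.Schur.PcMain Cfsg.Agent.Lib.Schur.Co1M.Engine

def rule_0 : List (List ℕ) := [[]]

def rule_1 : List (List ℕ) := [[1], []]

def item_0 : List (List ℕ) × List (List ℕ) := ([[0], [1]], [[1, 1, 1, 1], [0, 0, 0, 1, 1, 1]])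

def ov_0 : List ℕ × ℕ × ℕ × List (ℕ × ℤ) := ([1, 1, 1, 1, 1, 1, 1, 0], 0, 6, [(1000, -7)])

def fr_0 : ℕ × List ℕ × List ℕ × List (ℕ × ℤ) := (0, [1, 0], [0, 1], [(1000, -13)])

def tg_0 : ℕ × ℤ × List (ℕ × ℤ) := (1000, 0, [(0, -2), (1, 1)])

def C : Cert where
  p := 7
  n := 2
  r := 2
  fuel := 17
  rules := [rule_0, rule_1]
  defs := []
  items := [item_0]
  ovs := [ov_0]
  frs := [fr_0]
  k0 := 1000
  zm := 1
  zcomb := [(0, -2), (1, 1)]
  targets := [tg_0]

def wE : List (List (ℕ × ℕ)) := [[(22176458104794333920849425539451213, 2204803), (0, 0), (569313590065726943867134282415878897, 3270100), (0, 0), (599311892335075966100534029729682931, 6082678), (0, 0), (269070529279206253247633096402273738, 12423380), (0, 0), (259135021134879127704294057689886161, 1070536), (0, 0), (313225597221129229229157633667695732, 9486564)],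
  [(307732526369182503698185048555575584, 10450718), (0, 0), (693593064296371729355758068962431285, 13361745), (0, 0), (340789285342569313740051256279779754, 14460737)],
  [(Cfsg.Agent.Lib.Leech.Co1.Pid, 16777215)]]

def wY : List (List (ℕ × ℕ)) := [[(812130881352877599028834687927749696, 0)]]

def lv : List (ℕ × List (List ℕ)) := [(686053159114795289240674611757597208, [[1, 1, 1], [1, 1, 1, 1, 1, 2], [1, 1, 2], [1], [1, 1, 1, 1, 1, 1], [1, 1, 1, 1, 2], [2], [], [1, 1, 1, 1], [1, 1, 1, 1, 1, 1, 2], [1, 2], [1, 1], [1, 1, 1, 1, 1], [1, 1, 1, 2]]),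
  (686053159114795289240674611757597456, [[], [0, 0, 1, 1, 1, 1, 1, 1], [0, 0, 0, 1, 1], [0, 0, 0, 0, 1, 1, 1, 1, 1], [0, 0, 0, 0, 0, 0, 1, 1, 1, 1], [0, 1, 1, 1], [0, 0, 0, 0, 0, 1]])]

theorem hc : C.check = true := by decide +kernel

theorem row_0 : rowOK C wE 0 = true := by decide +kernel

theorem row_1 : rowOK C wE 1 = true := by decide +kernel

theorem hrows : ∀ j < C.n, rowOK C wE j = true := by
  intro j hj
  have hj' : j < 2 := hj
  interval_cases j
  · exact row_0
  · exact row_1

theorem itm_0 : itemOK C wE wY 0 = true := by decide +kernel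

theorem hitems : ∀ f < C.items.length, itemOK C wE wY f = true := by
  intro f hf
  have hf' : f < 1 := hf
  interval_cases f
  · exact itm_0

theorem hlev : chkLev wE [] lv = true := by decide +kernel

theorem hlv : lvOK C lv = true := by decide +kernel

theorem hprod : (lv.map fun t => t.2.length).prod = 2 * C.p ^ C.n := by decide +kernel

theorem hwN : wE.getD C.n [] = [negOp] := rfl

/-- The bound of this prime. -/
theorem main [Fact (Nat.Prime 7)] {Γ : Type*} [Group Γ] [Finite Γ] {σ : Γ →* Spor.Co1}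
    (hσ : IsStemExtension σ) (hG : Nat.card Spor.Co1 = 7 ^ 2 * 84852587888640000) (P : Sylow 7 Γ) :
    Nat.card (σ.subgroupMap (P : Subgroup Γ)).ker ∣ 1 :=
  card_ker_dvd' (p := 7) (m := 84852587888640000) C hc wE wY lv hwN hrows hitems hlev hlv hprod rfl hσ hG (by norm_num) P

end Cfsg.Agent.Lib.Schur.Co1M.P7
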